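import Cfsg.Agent.H284.EP.PS
import Cfsg.Agent.H131.EPB.Bridge

/-!
# S3499: the criteria K8 and PS (helper131; PS is helper284's `EPT.PS`)

* `K8`, `K8_comm`;
* `PS_cover`: `C_Q(Y)` is covered by the sets `Y C_Q(Y, w^(e/l))`; `PS_card`: the counting form.
-/

set_option autoImplicit false
set_option linter.unusedSectionVars false

namespace Cfsg.Agent.H131.EPB

open Subgroup Cfsg.Agent.H284

variable {Q : Type*} [Group Q] {A : Subgroup Q} {Γ : Subgroup (MulAut Q)}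

/-- **(K8)** -/
theorem K8 {Y : Subgroup Q} (hYA : Y ≤ A)
    (hyp : ∀ x ∉ A, Y ≤ cj x A → ∀ c ∈ A, (∀ y ∈ Y, c * y * c⁻¹ ∈ Y) → c ∈ cj x A)
    {t : Q} (ht : ∀ y ∈ Y, t * y * t⁻¹ ∈ Y) {c : Q} (hcA : c ∈ A) (hc : ∀ y ∈ Y, c * y * c⁻¹ ∈ Y) :
    t * c * t⁻¹ ∈ A :=
  EP.CL (C := {c | c ∈ A ∧ ∀ y ∈ Y, c * y * c⁻¹ ∈ Y}) (fun _ h => h.1) hYA
    (fun x hx hY c hc => hyp x hx hY c hc.1 hc.2) ht ⟨hcA, hc⟩

/-- **(K8)**, commutators -/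
theorem K8_comm {Y : Subgroup Q} (hYA : Y ≤ A)
    (hyp : ∀ x ∉ A, Y ≤ cj x A → ∀ c ∈ A, (∀ y ∈ Y, c * y * c⁻¹ ∈ Y) → c ∈ cj x A)
    {t : Q} (ht : ∀ y ∈ Y, t * y = y * t) {c : Q} (hcA : c ∈ A) (hc : ∀ y ∈ Y, c * y * c⁻¹ ∈ Y)
    (hc' : ∀ y ∈ Y, c⁻¹ * y * c ∈ Y) :
    t * c * t⁻¹ * c⁻¹ ∈ A ∧ ∀ y ∈ Y, (t * c * t⁻¹ * c⁻¹) * y = y * (t * c * t⁻¹ * c⁻¹) := by
  refine ⟨A.mul_mem (K8 hYA hyp (t := t) (fun y hy => ?_) hcA hc) (A.inv_mem hcA), ?_⟩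
  · rw [ht y hy, mul_inv_cancel_right]
    exact hy
  · intro y hy
    have h1 := ht _ (hc' y hy)
    have h2 := ht y hy
    have h3 : t⁻¹ * (c⁻¹ * y * c) = (c⁻¹ * y * c) * t⁻¹ := by
      rw [inv_mul_eq_iff_eq_mul, ← mul_assoc, h1, mul_inv_cancel_right]
    calc (t * c * t⁻¹ * c⁻¹) * y = t * c * (t⁻¹ * (c⁻¹ * y * c)) * c⁻¹ := by group
      _ = t * c * ((c⁻¹ * y * c) * t⁻¹) * c⁻¹ := by rw [h3]
      _ = (t * y) * (c * t⁻¹ * c⁻¹) := by group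
      _ = (y * t) * (c * t⁻¹ * c⁻¹) := by rw [h2]
      _ = _ := by group

section PS

variable [Finite Q] (h : EPT A Γ)

include h

/-- **(PS)**, the covering -/
theorem PS_cover (hF : ∀ K : Subgroup Q, K ≤ A → (∀ σ ∈ Γ, ∀ k ∈ K, σ k ∈ K) → (∀ a ∈ K, ∀ b ∈ K, a * b = b * a) → K = ⊥)
    {s : ℕ} (hs : s.Prime) {Y : Subgroup Q} (hYA : Y ≤ A) (hY : Nat.card Y = s)
    (hYc : ∀ a ∈ A, (∀ y ∈ Y, a * y = y * a) → a ∈ Y)
    (hfrob : ∀ l, l.Prime → l ∣ Nat.card A → l ≠ s → ¬ l ^ (Nat.card A).factorization l ≡ 1 [MOD s])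
    {w : Q} (hwY : ∀ y ∈ Y, w * y * w⁻¹ ∈ Y) (hws : ¬ s ∣ orderOf w) (hw1 : w ≠ 1)
    (hN : ∀ a ∈ A, (∀ y ∈ Y, a * y * a⁻¹ ∈ Y) → ∃ y ∈ Y, ∃ k : ℤ, a = y * w ^ k)
    {c : Q} (hc : ∀ y ∈ Y, c * y = y * c) :
    ∃ l, l.Prime ∧ l ∣ orderOf w ∧ ∃ y ∈ Y, (c * y) * w ^ (orderOf w / l) = w ^ (orderOf w / l) * (c * y) := by
  by_cases hcA : c ∈ A
  · obtain ⟨l, hl, hlw⟩ := Nat.exists_prime_and_dvd (n := orderOf w) (fun e => hw1 (orderOf_eq_one_iff.1 e))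
    refine ⟨l, hl, hlw, c⁻¹, Y.inv_mem (hYc c hcA hc), ?_⟩
    rw [mul_inv_cancel, one_mul, mul_one]
  · exact h.PS hF hs hYA hY hYc hfrob hwY hws hN hc hcA

/-- **(PS)**, the counting form: for some prime `l` dividing the order of `w`,
`|C_Q(Y)| ≤ k s |C_Q(Y, w^(e/l))|`, `k` the number of such primes. -/
theorem PS_card (hF : ∀ K : Subgroup Q, K ≤ A → (∀ σ ∈ Γ, ∀ k ∈ K, σ k ∈ K) → (∀ a ∈ K, ∀ b ∈ K, a * b = b * a) → K = ⊥)
    {s : ℕ} (hs : s.Prime) {Y : Subgroup Q} (hYA : Y ≤ A) (hY : Nat.card Y = s)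
    (hYc : ∀ a ∈ A, (∀ y ∈ Y, a * y = y * a) → a ∈ Y)
    (hfrob : ∀ l, l.Prime → l ∣ Nat.card A → l ≠ s → ¬ l ^ (Nat.card A).factorization l ≡ 1 [MOD s])
    {w : Q} (hwY : ∀ y ∈ Y, w * y * w⁻¹ ∈ Y) (hws : ¬ s ∣ orderOf w) (hw1 : w ≠ 1)
    (hN : ∀ a ∈ A, (∀ y ∈ Y, a * y * a⁻¹ ∈ Y) → ∃ y ∈ Y, ∃ k : ℤ, a = y * w ^ k) :
    ∃ l, l.Prime ∧ l ∣ orderOf w ∧ Nat.card (centralizer (Y : Set Q)) ≤ (orderOf w).primeFactors.card *
      (s * Nat.card (centralizer (Y : Set Q) ⊓ centralizer {w ^ (orderOf w / l)} : Subgroup Q)) := by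
  classical
  have hF' := Fintype.ofFinite Q
  have hmem : ∀ c : Q, c ∈ centralizer (Y : Set Q) ↔ ∀ y ∈ Y, c * y = y * c := by
    intro c
    rw [mem_centralizer_iff]
    exact ⟨fun h y hy => (h y hy).symm, fun h y hy => (h y hy).symm⟩
  have hYab : ∀ a ∈ Y, ∀ b ∈ Y, a * b = b * a := by
    have := Fact.mk hs
    have := isCyclic_of_prime_card hY
    have hc : ∀ a b : Y, a * b = b * a := fun a b => (IsCyclic.commGroup (α := Y)).mul_comm a b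
    exact fun a ha b hb => Subtype.ext_iff.1 (hc ⟨a, ha⟩ ⟨b, hb⟩)
  let S : ℕ → Finset Q := fun l => Finset.univ.filter fun c => c ∈ centralizer (Y : Set Q) ∧
    ∃ y ∈ Y, (c * y) * w ^ (orderOf w / l) = w ^ (orderOf w / l) * (c * y)
  have hcov : (Finset.univ.filter fun c : Q => c ∈ centralizer (Y : Set Q)) ⊆ (orderOf w).primeFactors.biUnion S := by
    intro c hc
    rw [Finset.mem_filter] at hc
    obtain ⟨l, hl, hlw, hy⟩ := PS_cover h hF hs hYA hY hYc hfrob hwY hws hw1 hN ((hmem c).1 hc.2)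
    rw [Finset.mem_biUnion]
    refine ⟨l, Nat.mem_primeFactors.2 ⟨hl, hlw, (orderOf_pos w).ne'⟩, ?_⟩
    rw [Finset.mem_filter]
    exact ⟨Finset.mem_univ _, hc.2, hy⟩
  have hS : ∀ l, (S l).card ≤ s * Nat.card (centralizer (Y : Set Q) ⊓ centralizer {w ^ (orderOf w / l)} : Subgroup Q) := by
    intro l
    have h1 : s * Nat.card (centralizer (Y : Set Q) ⊓ centralizer {w ^ (orderOf w / l)} : Subgroup Q) =
        Nat.card (Y × (centralizer (Y : Set Q) ⊓ centralizer {w ^ (orderOf w / l)} : Subgroup Q)) := by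
      rw [Nat.card_prod, hY]
    rw [h1, Nat.card_eq_fintype_card, ← Finset.card_univ]
    refine Finset.card_le_card_of_surjOn
      (fun p : Y × (centralizer (Y : Set Q) ⊓ centralizer {w ^ (orderOf w / l)} : Subgroup Q) => (p.2 : Q) * p.1) ?_
    intro c hc
    rw [Finset.mem_coe, Finset.mem_filter] at hc
    obtain ⟨-, hcY, y, hy, e⟩ := hc
    refine ⟨(⟨y⁻¹, Y.inv_mem hy⟩, ⟨c * y, ?_, ?_⟩), Finset.mem_coe.2 (Finset.mem_univ _), ?_⟩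
    · exact (centralizer (Y : Set Q)).mul_mem hcY ((hmem y).2 fun y' hy' => hYab y hy y' hy')
    · show c * y ∈ centralizer {w ^ (orderOf w / l)}
      rw [mem_centralizer_iff]
      intro z hz
      rw [Set.mem_singleton_iff.1 hz]
      exact e.symm
    · show c * y * y⁻¹ = c
      rw [mul_inv_cancel_right]
  have hne : (orderOf w).primeFactors.Nonempty := by
    obtain ⟨l, hl, hlw⟩ := Nat.exists_prime_and_dvd (n := orderOf w) (fun e => hw1 (orderOf_eq_one_iff.1 e))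
    exact ⟨l, Nat.mem_primeFactors.2 ⟨hl, hlw, (orderOf_pos w).ne'⟩⟩
  obtain ⟨l, hl, hmax⟩ := Finset.exists_max_image (orderOf w).primeFactors
    (fun l => s * Nat.card (centralizer (Y : Set Q) ⊓ centralizer {w ^ (orderOf w / l)} : Subgroup Q)) hne
  obtain ⟨hl1, hl2, -⟩ := Nat.mem_primeFactors.1 hl
  refine ⟨l, hl1, hl2, ?_⟩
  have h3 : Nat.card (centralizer (Y : Set Q)) = (Finset.univ.filter fun c : Q => c ∈ centralizer (Y : Set Q)).card := by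
    rw [Nat.card_eq_fintype_card, Fintype.card_subtype]
  rw [h3]
  refine (Finset.card_le_card hcov).trans ?_
  refine Finset.card_biUnion_le_card_mul _ _ _ ?_
  intro l' hl'
  exact (hS l').trans (hmax l' hl')

end PS

end Cfsg.Agent.H131.EPB
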